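import Mathlib

/-!
# All degrees less than `p`: the integral identities

`X` stands for the irreducible characters of `G`, `I` for the orbits of `N(P)` on the nontrivial
linear characters of `C(P) / O_{p'}(C(P))`; `f` and `m` are multiplicities in the restriction.
-/

set_option autoImplicit false

namespace CfsgLib.DegreeLtPrime

variable {X I : Type*} [Fintype X] [Fintype I]

/-- The hypotheses satisfied by the multiplicities. -/
structure MultSystem (e : ℕ) (n : ℤ) (m : X → I → ℤ) (f d : X → ℤ) (x0 : X) : Prop where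
  e_pos : 0 < e
  d_pos : ∀ x, 0 < d x
  f_nonneg : ∀ x, 0 ≤ f x
  m_nonneg : ∀ x i, 0 ≤ m x i
  d_x0 : d x0 = 1
  f_x0 : f x0 = 1
  m_x0 : ∀ i, m x0 i = 0
  d_le : ∀ x, d x ≤ e * Fintype.card I
  le_d : ∀ x, f x + e * ∑ i, m x i ≤ d x
  pair : ∀ i j, i ≠ j → ∑ x, (m x i - m x j) ^ 2 = 2
  triple : ∀ i j k, i ≠ j → i ≠ k → j ≠ k → ∑ x, (m x i - m x j) * (m x i - m x k) = 1
  pair_d : ∀ i j, ∑ x, d x * (m x i - m x j) = 0
  pair_f : ∀ i j, ∑ x, f x * (m x i - m x j) = 0
  fsq : (Fintype.card I : ℤ) * ∑ x, f x ^ 2 - ∑ x, f x * ∑ i, m x i = Fintype.card I * e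
  msq : ∑ x, (∑ i, m x i) ^ 2 - (Fintype.card I : ℤ) * ∑ x, f x * ∑ i, m x i = Fintype.card I
  index_eq : ∑ x, d x * f x = e * n
  index_ge : (e : ℤ) * Fintype.card I + 2 ≤ n

variable {e : ℕ} {n : ℤ} {m : X → I → ℤ} {f d : X → ℤ} {x0 : X}

open scoped Classical in
theorem MultSystem.exists_u (S : MultSystem e n m f d x0) : ∃ u : I → I → X, ∀ i j, i ≠ j → ∀ x,
    m x i - m x j = (if x = u i j then 1 else 0) - (if x = u j i then 1 else 0) := by
  have key : ∀ i j, i ≠ j → ∃ y z, y ≠ z ∧ ∀ x,
      m x i - m x j = (if x = y then 1 else 0) - (if x = z then 1 else 0) := by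
    intro i j hij
    have h2 := S.pair i j hij
    have hd := S.pair_d i j
    obtain ⟨y, hy⟩ : ∃ y, 0 < m y i - m y j := by
      by_contra! hh
      have h0 : ∀ x ∈ Finset.univ, d x * (m x i - m x j) = 0 :=
        (Finset.sum_eq_zero_iff_of_nonpos fun x _ =>
          mul_nonpos_of_nonneg_of_nonpos (S.d_pos x).le (hh x)).1 hd
      rw [Finset.sum_eq_zero fun x hx => by
        rw [(mul_eq_zero.1 (h0 x hx)).resolve_left (S.d_pos x).ne']; rfl] at h2
      exact absurd h2 (by norm_num)
    obtain ⟨z, hz⟩ : ∃ z, m z i - m z j < 0 := by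
      by_contra! hh
      have h0 := (Finset.sum_eq_zero_iff_of_nonneg fun x _ =>
        mul_nonneg (S.d_pos x).le (hh x)).1 hd y (Finset.mem_univ y)
      rcases mul_eq_zero.1 h0 with h | h
      · exact absurd h (S.d_pos y).ne'
      · exact absurd h hy.ne'
    have hyz : y ≠ z := by rintro rfl; exact absurd (hy.trans hz) (lt_irrefl _)
    refine ⟨y, z, hyz, fun x => ?_⟩
    have h1 : (1 : ℤ) ≤ (m y i - m y j) ^ 2 := by nlinarith
    have h1' : (1 : ℤ) ≤ (m z i - m z j) ^ 2 := by nlinarith
    rw [← Finset.add_sum_erase _ _ (Finset.mem_univ y),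
      ← Finset.add_sum_erase _ _ (Finset.mem_erase.2 ⟨hyz.symm, Finset.mem_univ z⟩)] at h2
    have h3 : 0 ≤ ∑ w ∈ (Finset.univ.erase y).erase z, (m w i - m w j) ^ 2 :=
      Finset.sum_nonneg fun w _ => sq_nonneg _
    by_cases hxy : x = y
    · subst hxy
      rw [if_pos rfl, if_neg hyz, sub_zero]
      nlinarith
    by_cases hxz : x = z
    · subst hxz
      rw [if_neg hxy, if_pos rfl, zero_sub]
      nlinarith
    rw [if_neg hxy, if_neg hxz, sub_zero]
    have h4 : (m x i - m x j) ^ 2 ≤ ∑ w ∈ (Finset.univ.erase y).erase z, (m w i - m w j) ^ 2 :=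
      Finset.single_le_sum (f := fun w => (m w i - m w j) ^ 2) (fun w _ => sq_nonneg _)
        (Finset.mem_erase.2 ⟨hxz, Finset.mem_erase.2 ⟨hxy, Finset.mem_univ x⟩⟩)
    nlinarith
  choose y z hyz hspec using key
  refine ⟨fun i j => if h : i ≠ j then y i j h else x0, fun i j hij x => ?_⟩
  simp only [dif_pos hij, dif_pos hij.symm]
  have hz : y j i hij.symm = z i j hij := by
    have h1 := hspec i j hij (y j i hij.symm)
    have h2 := hspec j i hij.symm (y j i hij.symm)
    rw [if_pos rfl, if_neg (hyz j i hij.symm), sub_zero] at h2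
    by_contra hne
    rw [if_neg hne] at h1
    split_ifs at h1 <;> omega
  rw [hz]
  exact hspec i j hij x

open scoped Classical in
/-- The conclusion: some character has restriction `ρ_P - 1` and, if nothing else meets the
restriction, there are exactly two orbit sizes. -/
theorem MultSystem.main (S : MultSystem e n m f d x0) :
    ∃ ψ, ψ ≠ x0 ∧ d ψ = e * Fintype.card I ∧ (∑ i, m ψ i) = Fintype.card I ∧
      ((∀ x, d x = f x + e * ∑ i, m x i) → (∀ x, (∑ i, m x i) = 0 → x = x0) →
        e = 2 ∧ Fintype.card X = Fintype.card I + 2) := by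
  set r : ℤ := (Fintype.card I : ℤ) with hr
  have he : (1 : ℤ) ≤ e := by exact_mod_cast S.e_pos
  have hrnn : 0 ≤ r := Int.natCast_nonneg _
  set F : X → ℤ := fun x => ∑ i, m x i with hF
  have hFnn : ∀ x, 0 ≤ F x := fun x => Finset.sum_nonneg fun i _ => S.m_nonneg x i
  have hFle : ∀ x, F x ≤ r := fun x => by
    have h1 := (S.le_d x).trans (S.d_le x)
    have h2 := S.f_nonneg x
    by_contra hlt
    push Not at hlt
    nlinarith [mul_lt_mul_of_pos_left hlt (show (0 : ℤ) < e by omega)]
  have hFlt : ∀ x, 1 ≤ f x → F x < r := fun x hf => by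
    have h1 := (S.le_d x).trans (S.d_le x)
    by_contra hge
    push Not at hge
    nlinarith [mul_le_mul_of_nonneg_left hge (show (0 : ℤ) ≤ e by omega)]
  have hFx0 : F x0 = 0 := Finset.sum_eq_zero fun i _ => S.m_x0 i
  -- the weight of the characters with `f = 1`
  set U := (Finset.univ.erase x0).filter (fun x => f x = 1) with hU
  have hUsum : r < ∑ x ∈ U, F x := by
    by_contra! hle
    have hterm : ∀ x ∈ Finset.univ.erase x0,
        r * f x ≤ r * f x ^ 2 - f x * F x + (if f x = 1 then F x else 0) := by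
      intro x _
      split_ifs with h1
      · rw [h1]; linarith
      · rcases (show f x = 0 ∨ 2 ≤ f x by have := S.f_nonneg x; omega) with h0 | h0
        · rw [h0]; simp
        · nlinarith [mul_nonneg (S.f_nonneg x) (show (0 : ℤ) ≤ r * (f x - 1) - F x by
            nlinarith [hFle x, mul_le_mul_of_nonneg_left (show (1 : ℤ) ≤ f x - 1 by omega) hrnn])]
    have h1 := Finset.sum_le_sum hterm
    rw [Finset.sum_add_distrib, Finset.sum_sub_distrib, ← Finset.mul_sum, ← Finset.mul_sum,
      ← Finset.sum_filter, ← hU] at h1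
    have hfs := S.fsq
    rw [← Finset.add_sum_erase _ _ (Finset.mem_univ x0), ← Finset.add_sum_erase _ _ (Finset.mem_univ x0)] at hfs
    rw [show (∑ i, m x0 i) = 0 from hFx0, S.f_x0] at hfs
    have hi := S.index_eq
    rw [← Finset.add_sum_erase _ _ (Finset.mem_univ x0), S.d_x0, S.f_x0] at hi
    have h2 : ∑ x ∈ Finset.univ.erase x0, d x * f x ≤
        ∑ x ∈ Finset.univ.erase x0, (e * r) * f x :=
      Finset.sum_le_sum fun x _ => mul_le_mul_of_nonneg_right (S.d_le x) (S.f_nonneg x)
    rw [← Finset.mul_sum] at h2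
    have hn := mul_le_mul_of_nonneg_left S.index_ge (show (0 : ℤ) ≤ e by omega)
    rw [← hr] at hn hfs
    have h3 : r * ∑ x ∈ Finset.univ.erase x0, f x ≤ r * e := by
      simp only [hF] at h1 hle ⊢
      linarith
    nlinarith [mul_le_mul_of_nonneg_left h3 (show (0 : ℤ) ≤ e by omega)]
  obtain ⟨u, hu⟩ := S.exists_u
  have hune : ∀ i j, i ≠ j → u i j ≠ u j i := fun i j hij e' => by
    have h := S.pair i j hij
    rw [Finset.sum_eq_zero fun x _ => by rw [hu i j hij x, e', sub_self]; rfl] at h
    exact absurd h (by norm_num)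
  have hval : ∀ i j, i ≠ j → m (u i j) i = m (u i j) j + 1 := fun i j hij => by
    have := hu i j hij (u i j)
    rw [if_pos rfl, if_neg (hune i j hij)] at this
    omega
  have huniq : ∀ i j x, i ≠ j → m x j < m x i → x = u i j := fun i j x hij h => by
    by_contra hne
    have := hu i j hij x
    rw [if_neg hne] at this
    split_ifs at this <;> omega
  have hdiff : ∀ i j x, m x i ≤ m x j + 1 := fun i j x => by
    rcases eq_or_ne i j with rfl | hij
    · omega
    have := hu i j hij x
    split_ifs at this <;> omega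
  have hfsymm : ∀ i j, i ≠ j → f (u i j) = f (u j i) := fun i j hij => by
    have h := S.pair_f i j
    simp only [hu i j hij, mul_sub, Finset.sum_sub_distrib, mul_ite, mul_one, mul_zero,
      Finset.sum_ite_eq', Finset.mem_univ, if_true] at h
    omega
  have hexU : ∀ x, 1 ≤ f x → 0 < F x → ∃ i j, i ≠ j ∧ x = u i j := by
    intro x hf hF0
    by_contra hh
    push Not at hh
    have hc : ∀ i j, m x i = m x j := fun i j => by
      rcases eq_or_ne i j with rfl | hij
      · rfl
      rcases lt_trichotomy (m x i) (m x j) with h | h | h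
      · exact absurd (huniq j i x hij.symm h) (hh j i hij.symm)
      · exact h
      · exact absurd (huniq i j x hij h) (hh i j hij)
    obtain ⟨i, hi⟩ : ∃ i, 0 < m x i := by
      by_contra! h0
      exact absurd hF0 (not_lt.2 (Finset.sum_nonpos fun i _ => h0 i))
    have : r ≤ F x := by
      calc r = ∑ _j : I, (1 : ℤ) := by simp [hr]
        _ ≤ F x := Finset.sum_le_sum fun j _ => by rw [hc j i]; omega
    exact absurd (hFlt x hf) (not_lt.2 this)
  -- the two types of triples
  have htri : ∀ i j k, i ≠ j → i ≠ k → j ≠ k →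
      (u i j = u i k ↔ ¬ u j i = u k i) := by
    intro i j k hij hik hjk
    have h := S.triple i j k hij hik hjk
    simp only [hu i j hij, hu i k hik, sub_mul, mul_sub, Finset.sum_sub_distrib, mul_ite, mul_one,
      mul_zero, Finset.sum_ite_eq', Finset.mem_univ, if_true] at h
    have n1 : ¬ u i k = u j i := fun e' => by
      have := hval i k hik; have := hval j i hij.symm; have := hdiff j k (u i k)
      rw [← e'] at *; omega
    have n2 : ¬ u k i = u i j := fun e' => by
      have := hval k i hik.symm; have := hval i j hij; have := hdiff k j (u i j)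
      rw [e'] at *; omega
    rw [if_neg n1, if_neg n2] at h
    constructor
    · intro hL hR
      rw [if_pos hL.symm, if_pos hR.symm] at h
      omega
    · intro hR
      by_contra hL
      rw [if_neg fun a => hL a.symm, if_neg fun a => hR a.symm] at h
      omega
  have hrot : ∀ i j k, i ≠ j → i ≠ k → j ≠ k → u i j = u i k → u j i = u j k := by
    intro i j k hij hik hjk hL
    rw [htri j i k hij.symm hjk hik]
    intro hR
    have a1 := hval i k hik; have a2 := hval k j hjk.symm; have a3 := hdiff i j (u i k)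
    rw [← hR, hL] at a2
    omega
  have hrepl : ∀ i j k l, i ≠ j → i ≠ k → j ≠ k → l ≠ i → l ≠ j → u i j = u i k → u i j = u i l := by
    intro i j k l hij hik hjk hli hlj hL
    rcases eq_or_ne l k with rfl | hlk
    · exact hL
    by_contra hR
    have hRj : u i j = u l j := by
      by_contra h1
      have h2 : u j i = u j l := (htri j i l hij.symm hlj.symm hli.symm).2 h1
      exact hR (hrot j i l hij.symm hlj.symm hli.symm h2)
    have hxlk : u i j = u l k := huniq l k _ hlk (by
      have a1 := hval i k hik; have a2 := hval l j hlj; have a3 := hdiff i l (u i j)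
      have a4 := hval i j hij; have a5 := hdiff l i (u i j)
      rw [← hL] at a1; rw [← hRj] at a2; omega)
    have hkli : ¬ u k i = u k l := by
      rw [htri k i l hik.symm hlk.symm hli.symm, not_not, ← hL, hxlk]
    have hR2 : u k i = u l i := by
      by_contra h1
      exact hkli (hrot i k l hik hli.symm hlk.symm ((htri i k l hik hli.symm hlk.symm).2 h1))
    have hkjl : u k j = u k l :=
      (hrot l k j hlk hlj hjk.symm (hxlk.symm.trans hRj)).symm
    have hki : u k i = u k j :=
      hrot j k i hjk hij.symm hik.symm (hrot i j k hij hik hjk hL).symm |>.symm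
    have b1 := hval k l hlk.symm; have b2 := hval l i hli; have b3 := hdiff k i (u k l)
    rw [← hR2, hki, hkjl] at b2
    omega
  by_cases hall : ∀ i j k, i ≠ j → i ≠ k → j ≠ k → u i j = u i k
  · -- singletons
    exfalso
    have hsub : ∀ x ∈ U, 0 < F x → ∃ i, F x = 1 ∧ ∃ j, i ≠ j ∧ x = u i j := by
      intro x hx hF0
      have hf : f x = 1 := (Finset.mem_filter.1 hx).2
      obtain ⟨i, j, hij, rfl⟩ := hexU x hf.ge hF0
      refine ⟨i, ?_, j, hij, rfl⟩
      have hk : ∀ k, k ≠ i → m (u i j) k = m (u i j) j := fun k hk => by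
        have h1 := hval i j hij
        rcases eq_or_ne k j with rfl | hkj
        · rfl
        have h2 := hval i k hk.symm
        rw [← hall i j k hij hk.symm hkj.symm] at h2
        omega
      have hsum : F (u i j) = r * m (u i j) j + 1 := by
        show (∑ k, m (u i j) k) = _
        rw [← Finset.add_sum_erase _ _ (Finset.mem_univ i), Finset.sum_congr rfl fun k hk' =>
          hk k (Finset.mem_erase.1 hk').1, Finset.sum_const, nsmul_eq_mul,
          Finset.card_erase_of_mem (Finset.mem_univ i), Finset.card_univ, hval i j hij,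
          Nat.cast_sub (Fintype.card_pos_iff.2 ⟨i⟩), hr]
        push_cast
        ring
      have h1 := hFlt _ hf.ge
      have h0 := S.m_nonneg (u i j) j
      rcases eq_or_lt_of_le h0 with h | h
      · rw [hsum, ← h, mul_zero, zero_add]
      · nlinarith [mul_le_mul_of_nonneg_left (show (1 : ℤ) ≤ m (u i j) j by omega) hrnn]
    set W := U.filter (fun x => 0 < F x) with hW
    have hWx : ∀ x ∈ W, F x = 1 := fun x hx => by
      obtain ⟨i, h, -⟩ := hsub x (Finset.mem_filter.1 hx).1 (Finset.mem_filter.1 hx).2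
      exact h
    have hFW : ∑ x ∈ U, F x = W.card := by
      rw [← Finset.sum_filter_add_sum_filter_not U (fun x => 0 < F x), ← hW,
        Finset.sum_congr rfl hWx, Finset.sum_eq_zero (s := U.filter fun x => ¬ 0 < F x)
          fun x hx => le_antisymm (not_lt.1 (Finset.mem_filter.1 hx).2) (hFnn x)]
      simp
    have hcard : W.card ≤ Fintype.card I := by
      have : ∀ x : W, ∃ i j, i ≠ j ∧ (x : X) = u i j := fun x => by
        obtain ⟨i, -, j, h⟩ := hsub x (Finset.mem_filter.1 x.2).1 (Finset.mem_filter.1 x.2).2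
        exact ⟨i, j, h⟩
      choose g j hgj hgx using this
      rw [← Fintype.card_coe]
      refine Fintype.card_le_of_injective g fun x y hxy => Subtype.ext ?_
      rw [hgx x, hgx y]
      rcases eq_or_ne (j x) (j y) with h | h
      · rw [hxy, h]
      · rw [hxy]; exact hall _ _ _ (hxy ▸ hgj x) (hgj y) h
    rw [hFW, hr] at hUsum
    omega
  -- complements of singletons
  push Not at hall
  obtain ⟨a, b, c, hab, hac, hbc, hnot⟩ := hall
  have hR : ∀ i j k, i ≠ j → i ≠ k → j ≠ k → u j i = u k i := by
    intro i j k hij hik hjk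
    by_contra h
    have hL : u i j = u i k := (htri i j k hij hik hjk).2 h
    -- move the triple `i j k` to `a b c`
    have step : ∀ p q s t : I, p ≠ q → p ≠ s → q ≠ s → u p q = u p s →
        ∃ q' s', t ≠ q' ∧ t ≠ s' ∧ q' ≠ s' ∧ u t q' = u t s' := by
      intro p q s t hpq hps hqs hp
      by_cases htp : t = p
      · subst htp; exact ⟨q, s, hpq, hps, hqs, hp⟩
      by_cases htq : t = q
      · subst htq; exact ⟨p, s, hpq.symm, hqs, hps, hrot p t s hpq hps hqs hp⟩
      have h1 := hrepl p q s t hpq hps hqs htp htq hp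
      exact ⟨p, q, htp, htq, hpq, hrot p t q (Ne.symm htp) hpq htq h1.symm⟩
    obtain ⟨q, s, h1, h2, h3, h4⟩ := step i j k a hij hik hjk hL
    have h5 : ∀ t, t ≠ a → ∀ t', t' ≠ a → t ≠ t' → u a t = u a t' := by
      have h6 : ∀ t, t ≠ a → u a t = u a q := fun t hta => by
        rcases eq_or_ne t q with rfl | htq
        · rfl
        exact (hrepl a q s t h1 h2 h3 hta htq h4).symm
      exact fun t ht t' ht' _ => (h6 t ht).trans (h6 t' ht').symm
    exact hnot (h5 b hab.symm c hac.symm hbc)
  -- all complements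
  have hother : ∀ j : I, ∃ i, i ≠ j := fun j => by
    rcases eq_or_ne j a with rfl | h
    · exact ⟨b, hab.symm⟩
    · exact ⟨a, h.symm⟩
  choose o ho using hother
  set v : I → X := fun j => u (o j) j with hv
  have huv : ∀ i j, i ≠ j → u i j = v j := fun i j hij => by
    rcases eq_or_ne i (o j) with h | h
    · simp only [hv, h]
    · exact hR j i (o j) hij.symm (ho j).symm h
  have hvf : ∀ i j, f (v i) = f (v j) := fun i j => by
    rcases eq_or_ne i j with rfl | h
    · rfl
    rw [← huv j i h.symm, ← huv i j h]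
    exact hfsymm j i h.symm
  obtain ⟨x1, hx1, hF1⟩ : ∃ x ∈ U, 0 < F x := by
    by_contra! hh
    exact absurd hUsum (not_lt.2 ((Finset.sum_nonpos hh).trans hrnn))
  have hvone : ∀ j, f (v j) = 1 := fun j => by
    have hf : f x1 = 1 := (Finset.mem_filter.1 hx1).2
    obtain ⟨i', j', hij', rfl⟩ := hexU x1 hf.ge hF1
    rw [hvf j j', ← huv i' j' hij', hf]
  have hvm : ∀ j, F (v j) = r - 1 ∧ m (v j) j = 0 := by
    intro j
    have hk : ∀ k, k ≠ j → m (v j) k = m (v j) j + 1 := fun k hk => by
      rw [← huv k j hk]; exact hval k j hk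
    have hsum : F (v j) = r * m (v j) j + (r - 1) := by
      show (∑ k, m (v j) k) = _
      rw [← Finset.add_sum_erase _ _ (Finset.mem_univ j), Finset.sum_congr rfl fun k hk' =>
        hk k (Finset.mem_erase.1 hk').1, Finset.sum_const, nsmul_eq_mul,
        Finset.card_erase_of_mem (Finset.mem_univ j), Finset.card_univ,
        Nat.cast_sub (Fintype.card_pos_iff.2 ⟨j⟩), hr]
      push_cast
      ring
    have h1 := hFlt _ (hvone j).ge
    rcases eq_or_lt_of_le (S.m_nonneg (v j) j) with h | h
    · exact ⟨by rw [hsum, ← h, mul_zero, zero_add], h.symm⟩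
    · have hr1 : 1 ≤ r := by rw [hr]; exact_mod_cast Fintype.card_pos_iff.2 ⟨j⟩
      nlinarith [mul_le_mul_of_nonneg_left (show (1 : ℤ) ≤ m (v j) j by omega) hrnn]
  have hvinj : Function.Injective v := fun i j hij => by
    by_contra hne
    have := hval i j hne
    rw [huv i j hne] at this
    have h1 := (hvm i).2
    rw [hij] at h1
    have h2 := (hvm j).2
    omega
  have hconst : ∀ x, x ∉ Finset.univ.image v → F x = 0 ∨ (F x = r ∧ f x = 0 ∧ d x = e * r) := by
    intro x hx
    have hc : ∀ i j, m x i ≤ m x j := fun i j => by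
      by_contra hlt
      push Not at hlt
      have hij : i ≠ j := by rintro rfl; exact lt_irrefl _ hlt
      exact hx (Finset.mem_image.2 ⟨j, Finset.mem_univ j,
        ((huniq i j x hij hlt).trans (huv i j hij)).symm⟩)
    rcases (hFnn x).eq_or_lt with h | h
    · exact Or.inl h.symm
    right
    obtain ⟨i, hi⟩ : ∃ i, 0 < m x i := by
      by_contra! h0
      exact absurd h (not_lt.2 (Finset.sum_nonpos fun i _ => h0 i))
    have h1 : r ≤ F x := by
      calc r = ∑ _j : I, (1 : ℤ) := by simp [hr]
        _ ≤ F x := Finset.sum_le_sum fun j _ => by have := hc i j; omega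
    have hFr := le_antisymm (hFle x) h1
    have h2 := S.le_d x
    have h3 := S.d_le x
    have h4 := S.f_nonneg x
    change f x + e * F x ≤ d x at h2
    rw [hFr] at h2
    rw [← hr] at h3
    exact ⟨hFr, by omega, by omega⟩
  have hpart : ∀ g : X → ℤ, ∑ x, g x = (∑ j, g (v j)) + ∑ x ∈ (Finset.univ.image v)ᶜ, g x :=
    fun g => by
      rw [← Finset.sum_add_sum_compl (Finset.univ.image v), Finset.sum_image fun i _ j _ h => hvinj h]
  set N := ((Finset.univ.image v)ᶜ).filter (fun x => F x ≠ 0) with hN
  have hNval : ∀ x ∈ N, F x = r ∧ f x = 0 ∧ d x = e * r := fun x hx =>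
    (hconst x (Finset.mem_compl.1 (Finset.mem_filter.1 hx).1)).resolve_left (Finset.mem_filter.1 hx).2
  have hr2 : 1 ≤ r := by rw [hr]; exact_mod_cast Fintype.card_pos_iff.2 ⟨a⟩
  have hNcard : N.card = 1 := by
    have h : ∑ x, (F x ^ 2 - r * (f x * F x)) = r := by
      rw [Finset.sum_sub_distrib, ← Finset.mul_sum]; exact S.msq
    rw [hpart, ← Finset.sum_filter_add_sum_filter_not ((Finset.univ.image v)ᶜ) (fun x => F x ≠ 0),
      ← hN, Finset.sum_congr rfl (g := fun _ => -(r - 1)) fun j _ => by
        rw [(hvm j).1, hvone j]; ring,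
      Finset.sum_congr (s₁ := N) rfl (g := fun _ => r ^ 2) fun x hx => by
        rw [(hNval x hx).1, (hNval x hx).2.1]; ring,
      Finset.sum_eq_zero (s := ((Finset.univ.image v)ᶜ).filter fun x => ¬ F x ≠ 0) fun x hx => by
        rw [not_not.1 (Finset.mem_filter.1 hx).2]; ring] at h
    simp only [Finset.sum_const, Finset.card_univ, nsmul_eq_mul, add_zero, ← hr] at h
    have h0 : ((N.card : ℤ) - 1) * r ^ 2 = 0 := by linarith
    rcases mul_eq_zero.1 h0 with h1 | h1
    · omega
    · have : (1 : ℤ) ≤ r ^ 2 := one_le_pow₀ hr2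
      omega
  obtain ⟨ψ, hψ⟩ := Finset.card_eq_one.1 hNcard
  have hψN : ψ ∈ N := hψ ▸ Finset.mem_singleton_self ψ
  obtain ⟨hψF, hψf, hψd⟩ := hNval ψ hψN
  refine ⟨ψ, fun h => by rw [h, S.f_x0] at hψf; exact one_ne_zero hψf, hψd, hψF, fun hK hK0 => ?_⟩
  have hx0v : x0 ∉ Finset.univ.image v := fun h => by
    obtain ⟨j, -, hj⟩ := Finset.mem_image.1 h
    have hFj := (hvm j).1
    rw [hj, hFx0] at hFj
    -- then there is one orbit only
    have h3 : ∑ x ∈ U, F x ≤ 0 := Finset.sum_nonpos fun x hx => by
      have := hFlt x (Finset.mem_filter.1 hx).2.ge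
      have := hFnn x
      omega
    omega
  have hψ0 : ψ ≠ x0 := fun h => by rw [h, hFx0] at hψF; omega
  have huniv : (Finset.univ.image v)ᶜ = {x0, ψ} := by
    ext x
    simp only [Finset.mem_compl, Finset.mem_insert, Finset.mem_singleton]
    constructor
    · intro hx
      rcases hconst x hx with h | h
      · exact Or.inl (hK0 x h)
      · refine Or.inr (Finset.mem_singleton.1 (hψ ▸ Finset.mem_filter.2
          ⟨Finset.mem_compl.2 hx, by rw [h.1]; omega⟩))
    · rintro (rfl | rfl)
      · exact hx0v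
      · exact Finset.mem_compl.1 (Finset.mem_filter.1 hψN).1
  constructor
  · have h : ∑ x, (r * f x ^ 2 - f x * F x) = r * e := by
      rw [Finset.sum_sub_distrib, ← Finset.mul_sum]; exact S.fsq
    rw [hpart, huniv, Finset.sum_pair hψ0.symm, Finset.sum_congr rfl (g := fun _ => (1 : ℤ))
      fun j _ => by rw [(hvm j).1, hvone j]; ring, hFx0, hψF, hψf, S.f_x0] at h
    simp only [Finset.sum_const, Finset.card_univ, nsmul_eq_mul, ← hr] at h
    have h0 : r * ((e : ℤ) - 2) = 0 := by linarith
    rcases mul_eq_zero.1 h0 with h1 | h1 <;> omega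
  · have h := Finset.card_add_card_compl (Finset.univ.image v)
    rw [huniv, Finset.card_pair hψ0.symm, Finset.card_image_of_injective _ hvinj, Finset.card_univ] at h
    exact h.symm

end CfsgLib.DegreeLtPrime
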