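import Cfsg.Agent.Chars.DegreeLtPrime.Setting
import Cfsg.Agent.Chars.DegreeLtPrime.Combinatorics

/-!
# No simple group has a Sylow subgroup of order `p` and all degrees less than `p`
-/

set_option autoImplicit false

namespace CfsgLib.DegreeLtPrime

open Cfsg CfsgLib.Chars

universe u

variable {G : Type u} [Group G] [Fintype G] {p : ℕ} [Fact p.Prime]

theorem eq_oneChar_of_forall_eq (χ : IrrCharacter G)
    (h : ∀ g : G, (χ : G → ℂ) g = (χ : G → ℂ) 1) : χ = oneChar G := by
  by_contra hne
  have h0 := classInner_of_ne hne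
  simp only [classInner, oneChar_apply, map_one, mul_one, Finset.sum_congr rfl fun g _ => h g,
    Finset.sum_const, Finset.card_univ, nsmul_eq_mul, Nat.card_eq_fintype_card] at h0
  rw [← mul_assoc, inv_mul_cancel₀ (Nat.cast_ne_zero.2 Fintype.card_ne_zero), one_mul,
    ← coe_charDegree, Nat.cast_eq_zero] at h0
  exact (charDegree_pos χ).ne' h0

theorem no_simple_orderP (hsimple : ∀ N : Subgroup G, N.Normal → N = ⊥ ∨ N = ⊤) (Ps : Sylow p G)
    (hcard : Nat.card Ps = p) (hnn : ¬ (Ps : Subgroup G).Normal)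
    (hdeg : ∀ χ : IrrCharacter G, charDegree (χ : G → ℂ) < p) : False := by
  classical
  have hp : p.Prime := Fact.out
  set P : Subgroup G := (Ps : Subgroup G) with hPdef
  have S : OrderP P p := ⟨hcard, Ps.not_dvd_index⟩
  obtain ⟨Q⟩ := S.nonempty_proj
  haveI := Fintype.ofFinite (Subgroup.centralizer (P : Set G))
  haveI : Fact (Nat.card P).Prime := ⟨S.card_eq.symm ▸ hp⟩
  haveI := S.isCyclic
  haveI : IsMulCommutative P := ⟨⟨fun a b => Subtype.ext (S.comm a a.2 b b.2)⟩⟩
  haveI : Finite (P →* ℂˣ) := Finite.of_injective linChar linChar_injective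
  haveI := Fintype.ofFinite (P →* ℂˣ)
  set a := P.normalizerMonoidHom with ha
  let act : (P →* ℂˣ) → Subgroup.normalizer (P : Set G) → (P →* ℂˣ) :=
    fun l h => l.comp (a h).toMonoidHom
  have hactmul : ∀ l h h', act l (h * h') = act (act l h) h' := fun l h h' =>
    MonoidHom.ext fun x => by simp [act, map_mul]
  have hactone : ∀ l, act l 1 = l := fun l => MonoidHom.ext fun x => by simp [act]
  have hinj : ∀ l : P →* ℂˣ, l ≠ 1 → Function.Injective l := fun l hl => by
    rw [← MonoidHom.ker_eq_bot_iff]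
    refine (l.ker.eq_bot_or_eq_top_of_prime_card).resolve_right fun h => hl (MonoidHom.ext fun x => ?_)
    exact MonoidHom.mem_ker.1 (h ▸ Subgroup.mem_top x)
  have hne1 : ∀ l h, l ≠ 1 → act l h ≠ 1 := fun l h hl e => hl (MonoidHom.ext fun x => by
    have := DFunLike.congr_fun e ((a h).symm x)
    simpa [act] using this)
  have hone : ∀ h, act 1 h = 1 := fun h => MonoidHom.ext fun x => by simp [act]
  let rel : Setoid {l : P →* ℂˣ // l ≠ 1} :=
    ⟨fun l l' => ∃ h, act l.1 h = l'.1, ⟨fun l => ⟨1, hactone _⟩,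
      fun {l l'} ⟨h, hh⟩ => ⟨h⁻¹, by rw [← hh, ← hactmul, mul_inv_cancel, hactone]⟩,
      fun {l l' l''} ⟨h, hh⟩ ⟨h', hh'⟩ => ⟨h * h', by rw [hactmul, hh, hh']⟩⟩⟩
  set I := Quotient rel
  haveI : Fintype I := Fintype.ofFinite I
  set c := Nat.card (Subgroup.centralizer (P : Set G)) with hc
  set e := Nat.card a.range with he
  set n := (Subgroup.normalizer (P : Set G)).index with hn
  have hker : Nat.card a.ker = c := by
    rw [ha, Subgroup.normalizerMonoidHom_ker]
    exact Nat.card_congr (Subgroup.subgroupOfEquivOfLe (Subgroup.centralizer_le_normalizer _)).toEquiv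
  have hH : Nat.card (Subgroup.normalizer (P : Set G)) = c * e := by
    rw [← a.ker.card_mul_index, hker, Subgroup.index_ker]
  have hstab : ∀ l h, l ≠ 1 → act l h = l → a h = 1 := fun l h hl e' =>
    MulEquiv.ext fun x => hinj l hl (DFunLike.congr_fun e' x)
  -- counting the normalizing elements
  let N : (P →* ℂˣ) → (P →* ℂˣ) → ℕ := fun l l' =>
    Nat.card {h : Subgroup.normalizer (P : Set G) // act l h = l'}
  have hN11 : N 1 1 = c * e := by
    rw [← hH]; exact Nat.card_congr (Equiv.subtypeUnivEquiv fun h => hone h)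
  have hN1 : ∀ l, l ≠ 1 → N 1 l = 0 := fun l hl => by
    haveI : IsEmpty {h : Subgroup.normalizer (P : Set G) // act 1 h = l} :=
      ⟨fun h => hl (h.2.symm.trans (hone _))⟩
    exact Nat.card_of_isEmpty
  have hNl1 : ∀ l, l ≠ 1 → N l 1 = 0 := fun l hl => by
    haveI : IsEmpty {h : Subgroup.normalizer (P : Set G) // act l h = 1} := ⟨fun h => hne1 l _ hl h.2⟩
    exact Nat.card_of_isEmpty
  have hNrel : ∀ l l' : {l : P →* ℂˣ // l ≠ 1}, N l.1 l'.1 = if rel.r l l' then c else 0 := by
    intro l l'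
    split_ifs with hr
    · obtain ⟨h0, hh0⟩ := hr
      rw [← hker]
      refine Nat.card_congr ⟨fun h => ⟨h.1 * h0⁻¹, ?_⟩, fun k => ⟨k.1 * h0, ?_⟩,
        fun h => Subtype.ext (inv_mul_cancel_right _ _), fun k => Subtype.ext (mul_inv_cancel_right _ _)⟩
      · exact MonoidHom.mem_ker.2 (hstab l.1 _ l.2 (by
          rw [hactmul, h.2, ← hh0, ← hactmul, mul_inv_cancel, hactone]))
      · have hk : a k.1 = 1 := MonoidHom.mem_ker.1 k.2
        rw [hactmul, show act l.1 k.1 = l.1 from MonoidHom.ext fun x => by simp [act, hk], hh0]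
    · haveI : IsEmpty {h : Subgroup.normalizer (P : Set G) // act l.1 h = l'.1} :=
        ⟨fun h => hr ⟨h.1, h.2⟩⟩
      exact Nat.card_of_isEmpty
  have hc0 : c ≠ 0 := Nat.card_pos.ne'
  let K : (P →* ℂˣ) → (P →* ℂˣ) → ℤ := fun l l' =>
    ∑ χ : IrrCharacter G, (lmult Q χ l : ℤ) * lmult Q χ l'
  have hK : ∀ l l1 l2, (c : ℤ) * (K l l1 - K l l2) = (N l l1 : ℤ) - N l l2 := fun l l1 l2 => by
    rw [← S.sum_lmult Q l l1 l2]
    simp only [K, ← Finset.sum_sub_distrib, mul_sub, c]
  have hKcomm : ∀ l l', K l l' = K l' l := fun l l' =>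
    Finset.sum_congr rfl fun χ _ => mul_comm _ _
  set k := K 1 1 with hk
  have hK1 : ∀ l : {l : P →* ℂˣ // l ≠ 1}, K 1 l.1 = k - e := fun l => by
    have h := hK 1 1 l.1
    rw [hN11, hN1 _ l.2] at h
    push_cast at h
    have := mul_left_cancel₀ (Int.natCast_ne_zero.2 hc0) (h.trans (sub_zero _))
    omega
  have hKl : ∀ l l' : {l : P →* ℂˣ // l ≠ 1}, K l.1 l'.1 = k - e + if rel.r l l' then 1 else 0 := by
    intro l l'
    have h := hK l.1 l'.1 1
    rw [hNl1 _ l.2, hNrel, hKcomm l.1 1, hK1] at h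
    split_ifs at h ⊢ with hr
    · have h' : (c : ℤ) * (K l.1 l'.1 - (k - e)) = c * 1 := by rw [h]; simp
      have := mul_left_cancel₀ (Int.natCast_ne_zero.2 hc0) h'
      omega
    · have h' : (c : ℤ) * (K l.1 l'.1 - (k - e)) = c * 0 := by rw [h]; simp
      have := mul_left_cancel₀ (Int.natCast_ne_zero.2 hc0) h'
      omega
  have hmrel : ∀ χ, ∀ l l' : {l : P →* ℂˣ // l ≠ 1}, rel.r l l' → lmult Q χ l.1 = lmult Q χ l'.1 := by
    intro χ l l' hr
    have h : ∑ ψ : IrrCharacter G, ((lmult Q ψ l.1 : ℤ) - lmult Q ψ l'.1) ^ 2 = 0 := by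
      have : ∑ ψ : IrrCharacter G, ((lmult Q ψ l.1 : ℤ) - lmult Q ψ l'.1) ^ 2 =
          K l.1 l.1 - 2 * K l.1 l'.1 + K l'.1 l'.1 := by
        simp only [K, Finset.mul_sum, ← Finset.sum_sub_distrib, ← Finset.sum_add_distrib]
        exact Finset.sum_congr rfl fun ψ _ => by ring
      rw [this, hKl, hKl, hKl, if_pos (rel.iseqv.refl l), if_pos hr, if_pos (rel.iseqv.refl l')]
      ring
    have := pow_eq_zero_iff (n := 2) two_ne_zero |>.1
      ((Finset.sum_eq_zero_iff_of_nonneg fun ψ _ => sq_nonneg _).1 h χ (Finset.mem_univ χ))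
    omega
  have horb : ∀ i : I, (Finset.univ.filter fun l : {l : P →* ℂˣ // l ≠ 1} => (⟦l⟧ : I) = i).card = e := by
    intro i
    obtain ⟨l, rfl⟩ := i.exists_rep
    have h : Nat.card (Subgroup.normalizer (P : Set G)) =
        ∑ l' : {l : P →* ℂˣ // l ≠ 1}, N l.1 l'.1 := by
      rw [← Nat.card_congr (Equiv.sigmaFiberEquiv
        fun h => (⟨act l.1 h, hne1 l.1 h l.2⟩ : {l : P →* ℂˣ // l ≠ 1})), Nat.card_sigma]
      refine Finset.sum_congr rfl fun l' _ => Nat.card_congr (Equiv.subtypeEquivRight fun h => ?_)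
      exact ⟨fun e' => congrArg Subtype.val e', fun e' => Subtype.ext e'⟩
    simp only [hNrel, ← Finset.sum_filter, Finset.sum_const, smul_eq_mul, hH] at h
    rw [mul_comm c] at h
    rw [show (Finset.univ.filter fun l' => (⟦l'⟧ : I) = ⟦l⟧) = Finset.univ.filter fun l' => rel.r l l' from
      Finset.filter_congr fun l' _ => Quotient.eq.trans ⟨rel.iseqv.symm, rel.iseqv.symm⟩]
    exact (Nat.eq_of_mul_eq_mul_right (Nat.pos_of_ne_zero hc0) h).symm
  set r := Fintype.card I with hr
  have hΩ : Fintype.card {l : P →* ℂˣ // l ≠ 1} = e * r := by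
    rw [← Finset.card_univ, Finset.card_eq_sum_card_fiberwise (f := fun l => (⟦l⟧ : I))
      (t := Finset.univ) fun _ _ => Finset.mem_univ _, Finset.sum_congr rfl fun i _ => horb i,
      Finset.sum_const, Finset.card_univ, smul_eq_mul, mul_comm, hr]
  have hpr : p = e * r + 1 := by
    have h1 : Fintype.card (P →* ℂˣ) = p := by
      have hb : commutator P = ⊥ := commutator_eq_bot_iff.2 fun θ => map_one_eq_one_of_isMulCommutative θ
      rw [← Nat.card_eq_fintype_card, card_monoidHom_units, hb, Subgroup.index_bot, S.card_eq]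
    have h2 : Fintype.card {l : P →* ℂˣ // l ≠ 1} = p - 1 := by
      rw [Fintype.card_subtype_compl, h1, Fintype.card_subtype_eq]
    have := hp.one_lt
    omega
  -- the multiplicities
  let m : IrrCharacter G → I → ℤ := fun χ i => lmult Q χ i.out.1
  let f : IrrCharacter G → ℤ := fun χ => lmult Q χ 1
  let d : IrrCharacter G → ℤ := fun χ => charDegree (χ : G → ℂ)
  have hsumΩ : ∀ χ, (∑ l : {l : P →* ℂˣ // l ≠ 1}, (lmult Q χ l.1 : ℤ)) = e * ∑ i, m χ i := by
    intro χ
    rw [← Finset.sum_fiberwise Finset.univ (fun l => (⟦l⟧ : I)), Finset.mul_sum]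
    refine Finset.sum_congr rfl fun i _ => ?_
    rw [Finset.sum_congr rfl fun l hl => by
      rw [hmrel χ l i.out (Quotient.exact (((Finset.mem_filter.1 hl).2).trans i.out_eq.symm))],
      Finset.sum_const, horb, nsmul_eq_mul]
  have htot : ∀ χ, ((∑ l : P →* ℂˣ, lmult Q χ l : ℕ) : ℤ) = f χ + e * ∑ i, m χ i := fun χ => by
    rw [Fintype.sum_eq_add_sum_subtype_ne (lmult Q χ) 1, ← hsumΩ]
    push_cast
    rfl
  have hKm : ∀ i j : I, ∑ χ, m χ i * m χ j = k - e + if i = j then 1 else 0 := fun i j => by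
    show K i.out.1 j.out.1 = _
    rw [hKl]
    congr 1
    refine if_congr ⟨fun h => ?_, fun h => h ▸ rel.iseqv.refl _⟩ rfl rfl
    rw [← i.out_eq, ← j.out_eq]
    exact Quotient.sound h
  have hKf : ∀ i : I, ∑ χ, f χ * m χ i = k - e := fun i => hK1 i.out
  have hindex : ∀ l, ∑ χ, d χ * (lmult Q χ l : ℤ) = (e * n : ℕ) := fun l => by
    rw [sum_degree_lmult Q l, Nat.cast_inj]
    refine Nat.eq_of_mul_eq_mul_left (Nat.pos_of_ne_zero hc0) ?_
    rw [hc, Subgroup.card_mul_index, ← mul_assoc, ← hc, ← hH, hn, Subgroup.card_mul_index]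
  have hm0 : ∀ l, lmult Q (oneChar G) l = if l = 1 then 1 else 0 := fun l => by
    apply Nat.cast_injective (R := ℂ)
    rw [coe_lmult]
    push_cast
    rw [show (if l = 1 then (1 : ℂ) else 0) = if (1 : P →* ℂˣ) = l then 1 else 0 from
      if_congr eq_comm rfl rfl, ← proj_linChar_inner Q 1 l]
    congr 1
  have hn2 : e * r + 2 ≤ n := by
    have h1 : n ≡ 1 [MOD p] := by
      have h := card_sylow_modEq_one p G
      rw [Ps.card_eq_index_normalizer] at h
      exact h
    have h2 : n ≠ 1 := fun h => hnn (by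
      rw [← Subgroup.normalizer_eq_top_iff, ← Subgroup.index_eq_one]; exact h)
    have h0 : n ≠ 0 := Subgroup.index_ne_zero_of_finite
    have h3 : p ∣ n - 1 := (Nat.modEq_iff_dvd' (by omega)).1 h1.symm
    have := Nat.le_of_dvd (by omega) h3
    omega
  have he0 : 0 < e := Nat.card_pos
  have M : MultSystem e (n : ℤ) m f d (oneChar G) :=
    { e_pos := he0
      d_pos := fun χ => Int.natCast_pos.2 (charDegree_pos χ)
      f_nonneg := fun χ => Int.natCast_nonneg _
      m_nonneg := fun χ i => Int.natCast_nonneg _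
      d_x0 := by
        show ((charDegree (oneChar G : G → ℂ) : ℕ) : ℤ) = 1
        rw [charDegree_eq_of_map_one (n := 1) (by simp)]; rfl
      f_x0 := by simp only [f, hm0, if_true, Nat.cast_one]
      m_x0 := fun i => by simp only [m, hm0, if_neg i.out.2, Nat.cast_zero]
      d_le := fun χ => by
        have := hdeg χ
        show ((charDegree (χ : G → ℂ) : ℕ) : ℤ) ≤ _
        rw [← hr]; exact_mod_cast (show charDegree (χ : G → ℂ) ≤ e * r by omega)
      le_d := fun χ => by
        rw [← htot]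
        exact Int.ofNat_le.2 (sum_lmult_le Q χ).1
      pair := fun i j hij => by
        have : ∑ χ, (m χ i - m χ j) ^ 2 = ∑ χ, m χ i * m χ i - 2 * ∑ χ, m χ i * m χ j + ∑ χ, m χ j * m χ j := by
          simp only [Finset.mul_sum, ← Finset.sum_sub_distrib, ← Finset.sum_add_distrib]
          exact Finset.sum_congr rfl fun χ _ => by ring
        rw [this, hKm, hKm, hKm, if_pos rfl, if_neg hij, if_pos rfl]
        ring
      triple := fun i j l hij hil hjl => by
        simp only [sub_mul, mul_sub, Finset.sum_sub_distrib, hKm, if_pos, if_neg hij.symm, if_neg hil,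
          if_neg hjl]
        ring
      pair_d := fun i j => by
        simp only [mul_sub, Finset.sum_sub_distrib, m, hindex, sub_self]
      pair_f := fun i j => by simp only [mul_sub, Finset.sum_sub_distrib, hKf, sub_self]
      fsq := by
        rw [show ∑ χ, f χ ^ 2 = k from Finset.sum_congr rfl fun χ _ => sq _]
        simp only [Finset.mul_sum]
        rw [Finset.sum_comm, Finset.sum_congr rfl fun i _ => hKf i, Finset.sum_const, Finset.card_univ,
          nsmul_eq_mul]
        ring
      msq := by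
        have h1 : ∑ χ, (∑ i, m χ i) ^ 2 = ∑ i, ∑ j, ∑ χ, m χ i * m χ j := by
          simp only [sq, Finset.sum_mul_sum]
          rw [Finset.sum_comm]
          exact Finset.sum_congr rfl fun i _ => Finset.sum_comm
        have h2 : ∑ χ, f χ * ∑ i, m χ i = (Fintype.card I : ℤ) * (k - e) := by
          simp only [Finset.mul_sum]
          rw [Finset.sum_comm, Finset.sum_congr rfl fun i _ => hKf i, Finset.sum_const,
            Finset.card_univ, nsmul_eq_mul]
        rw [h1, h2]
        simp only [hKm, Finset.sum_add_distrib, Finset.sum_ite_eq, Finset.sum_ite_eq', Finset.mem_univ,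
          if_true, Finset.sum_const, Finset.card_univ, nsmul_eq_mul]
        have h3 : ∀ i : I, (∑ j : I, if i = j then (1 : ℤ) else 0) = 1 := fun i => by
          rw [Finset.sum_eq_single_of_mem i (Finset.mem_univ i) fun j _ hj => if_neg (Ne.symm hj),
            if_pos rfl]
        rw [Finset.sum_congr rfl fun i _ => h3 i, Finset.sum_const, Finset.card_univ, nsmul_eq_mul]
        ring
      index_eq := by simp only [f, hindex]; push_cast; ring
      index_ge := by rw [← hr]; exact_mod_cast hn2 }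
  obtain ⟨ψ, hψ1, hψd, hψm, hrest⟩ := M.main
  -- the kernel of the projection is trivial
  have hsimple' : ∀ χ : IrrCharacter G, χ ≠ oneChar G → ∀ g : G, (χ : G → ℂ) g = (χ : G → ℂ) 1 → g = 1 := by
    intro χ hχ g hg
    have hk : g ∈ charKer (χ : G → ℂ) := (mem_charKer_iff (isCharacter_coe χ)).2 hg
    rcases hsimple _ (instNormalCharKer χ) with h | h
    · rwa [h, Subgroup.mem_bot] at hk
    · exact absurd (eq_oneChar_of_forall_eq χ fun x =>
        map_eq_map_one_of_mem_charKer (h ▸ Subgroup.mem_top x)) hχ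
  have hπinj : Function.Injective Q.π := by
    rw [injective_iff_map_eq_one]
    intro y hy
    have heq : ∑ l : P →* ℂˣ, lmult Q ψ l = charDegree (ψ : G → ℂ) := by
      have h1 := htot ψ
      rw [hψm, ← hr] at h1
      have h2 : d ψ = e * r := hψd
      have h3 : (0 : ℤ) ≤ f ψ := Int.natCast_nonneg _
      have h4 : ((∑ l : P →* ℂˣ, lmult Q ψ l : ℕ) : ℤ) ≤ d ψ := Int.ofNat_le.2 (sum_lmult_le Q ψ).1
      have : ((∑ l : P →* ℂˣ, lmult Q ψ l : ℕ) : ℤ) = d ψ := by omega
      exact Int.ofNat_inj.1 this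
    refine Subtype.ext (hsimple' ψ hψ1 y ?_)
    rw [(sum_lmult_le Q ψ).2 heq y, ← coe_charDegree, ← heq, hy]
    simp
  have hCcard : c = p := by
    rw [hc, ← S.card_eq]; exact Nat.card_congr (Equiv.ofBijective _ ⟨hπinj, Q.surj⟩)
  have hall : ∀ χ, d χ = f χ + e * ∑ i, m χ i := by
    intro χ
    rw [← htot]
    refine congrArg Nat.cast ?_
    haveI : IsMulCommutative (Subgroup.centralizer (P : Set G)) :=
      ⟨⟨fun x y => hπinj (by rw [map_mul, map_mul]; exact Subtype.ext (S.comm _ (Q.π x).2 _ (Q.π y).2))⟩⟩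
    apply Nat.cast_injective (R := ℂ)
    rw [coe_charDegree, ← Subgroup.coe_one (Subgroup.centralizer (P : Set G)),
      eq_sum_classInner_mul (isClassFunction_of_isCharacter (isCharacter_restrict (isCharacter_coe χ)
        (Subgroup.centralizer (P : Set G)))) 1, Nat.cast_sum]
    let πe := MulEquiv.ofBijective Q.π ⟨hπinj, Q.surj⟩
    refine (Fintype.sum_bijective (fun l : P →* ℂˣ => linChar (l.comp Q.π)) ⟨fun l l' h =>
      (MonoidHom.cancel_right Q.surj).1 (linChar_injective h), fun θ => ?_⟩ _ _ fun l => ?_).symm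
    · obtain ⟨L, hL⟩ := exists_linChar_eq θ (map_one_eq_one_of_isMulCommutative θ)
      refine ⟨L.comp πe.symm.toMonoidHom, ?_⟩
      show linChar _ = θ
      rw [← hL]
      congr 1
      exact MonoidHom.ext fun y => congrArg L (πe.symm_apply_apply y)
    · show (lmult Q χ l : ℂ) = classInner _ _ * _
      rw [linChar_map_one, mul_one, coe_lmult]
  have hF0 : ∀ χ, (∑ i, m χ i) = 0 → χ = oneChar G := by
    intro χ hχ
    by_contra hne
    have h1 : ∀ l : {l : P →* ℂˣ // l ≠ 1}, lmult Q χ l.1 = 0 := fun l => by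
      have h := hsumΩ χ
      rw [hχ, mul_zero] at h
      have := (Finset.sum_eq_zero_iff_of_nonneg fun l _ => Int.natCast_nonneg _).1 h l (Finset.mem_univ l)
      exact_mod_cast this
    have heq : ∑ l : P →* ℂˣ, lmult Q χ l = charDegree (χ : G → ℂ) := by
      have h2 := hall χ
      rw [← htot] at h2
      exact (Int.ofNat_inj.1 h2).symm
    obtain ⟨x, hx⟩ : ∃ x : P, x ≠ 1 := by
      by_contra! hh
      haveI : Subsingleton P := ⟨fun x y => (hh x).trans (hh y).symm⟩
      have := hp.one_lt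
      rw [← S.card_eq, Nat.card_unique] at this
      omega
    refine hx (Subtype.ext (hsimple' χ hne x ?_))
    have h3 := (sum_lmult_le Q χ).2 heq ⟨x, S.le_centralizer x.2⟩
    show (χ : G → ℂ) (⟨x, S.le_centralizer x.2⟩ : Subgroup.centralizer (P : Set G)) = _
    rw [h3, ← coe_charDegree, ← heq, Nat.cast_sum]
    refine Finset.sum_congr rfl fun l _ => ?_
    by_cases hl : l = 1
    · subst hl; simp
    · rw [h1 ⟨l, hl⟩]; simp
  obtain ⟨he2, hcardX⟩ := hrest hall hF0
  rw [← hr] at hcardX
  -- counting classes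
  have hG : Nat.card G = 2 * n * p := by
    rw [← (Subgroup.normalizer (P : Set G)).card_mul_index, hH, hCcard, he2, ← hn]; ring
  have hcls : Nat.card (ConjClasses G) = r + 2 := by
    rw [← card_irrCharacter, Nat.card_eq_fintype_card, hcardX]
  haveI := Fintype.ofFinite (ConjClasses G)
  set Px : Finset P := Finset.univ.erase 1 with hPx
  let Φ : P → ConjClasses G := fun x => ConjClasses.mk (x : G)
  have hfibre : ∀ x ∈ Px, ∀ y : P, Φ y = Φ x → y ∈ (Finset.univ : Finset a.range).image fun g : a.range => (g : MulAut P) x := by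
    intro x hx y hy
    obtain ⟨g, hg⟩ := isConj_iff.1 (ConjClasses.mk_eq_mk_iff_isConj.1 hy.symm)
    have hgH : g ∈ Subgroup.normalizer (P : Set G) := by
      obtain ⟨yc, hyc⟩ : ∃ z : Subgroup.centralizer (P : Set G), (z : G) = x := ⟨⟨x, S.le_centralizer x.2⟩, rfl⟩
      refine S.mem_normalizer Q (y := yc) ?_ (by rw [hyc, hg]; exact S.le_centralizer y.2)
      intro h1
      exact (Finset.mem_erase.1 hx).1 (Subtype.ext (by
        rw [← hyc, hπinj (h1.trans (map_one Q.π).symm)]; rfl))
    exact Finset.mem_image.2 ⟨⟨a ⟨g, hgH⟩, ⟨_, rfl⟩⟩, Finset.mem_univ _, Subtype.ext hg⟩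
  have hPxcard : Px.card = p - 1 := by
    rw [hPx, Finset.card_erase_of_mem (Finset.mem_univ _), Finset.card_univ, ← Nat.card_eq_fintype_card,
      S.card_eq]
  set T := Px.image Φ with hT
  have hTlow : p - 1 ≤ 2 * T.card := by
    rw [← hPxcard, ← he2]
    refine Finset.card_le_mul_card_image _ _ fun C hC => ?_
    obtain ⟨x, hx, rfl⟩ := Finset.mem_image.1 hC
    refine (Finset.card_le_card fun y hy => hfibre x hx y (Finset.mem_filter.1 hy).2).trans
      (Finset.card_image_le.trans ?_)
    rw [Finset.card_univ, he, Nat.card_eq_fintype_card]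
  have h1T : ConjClasses.mk (1 : G) ∉ T := fun h => by
    obtain ⟨x, hx, hx1⟩ := Finset.mem_image.1 h
    exact (Finset.mem_erase.1 hx).1 (Subtype.ext (isConj_one_left.1 (ConjClasses.mk_eq_mk_iff_isConj.1 (show ConjClasses.mk (x : G) = ConjClasses.mk (1 : G) from hx1))))
  have hTup : T.card + 1 ≤ r + 2 := by
    rw [← hcls, Nat.card_eq_fintype_card, ← Finset.card_insert_of_notMem h1T]
    exact Finset.card_le_univ _
  have hcar : ∀ C ∈ T, Nat.card C.carrier = 2 * n := by
    intro C hC
    obtain ⟨x, hx, rfl⟩ := Finset.mem_image.1 hC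
    show Nat.card (ConjClasses.mk (x : G)).carrier = _
    rw [card_carrier_eq_index]
    have hxe : Subgroup.centralizer ({(x : G)} : Set G) = Subgroup.centralizer (P : Set G) := by
      refine le_antisymm (fun g hg => Subgroup.mem_centralizer_iff.2 fun b hb => ?_)
        (Subgroup.centralizer_le (Set.singleton_subset_iff.2 x.2))
      have hgx : g * (x : G) = x * g := Subgroup.mem_centralizer_singleton_iff.1 hg
      obtain ⟨j, hj⟩ := Subgroup.mem_zpowers_iff.1
        (mem_zpowers_of_prime_card S.card_eq (Finset.mem_erase.1 hx).1 (g' := (⟨b, hb⟩ : P)))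
      have hb' : (x : G) ^ j = b := by rw [← Subgroup.coe_zpow, hj]
      rw [← hb']
      exact ((show Commute g (x : G) from hgx).zpow_right j).eq.symm
    rw [hxe]
    refine Nat.eq_of_mul_eq_mul_left (Nat.pos_of_ne_zero hc0) ?_
    rw [hc, Subgroup.card_mul_index, ← hc, hG, hCcard]; ring
  have hsum : ∑ C : ConjClasses G, Nat.card C.carrier = 2 * n * p := by
    rw [← hG, Nat.card_eq_fintype_card, ← sum_conjClasses_card_eq_card]
    exact Finset.sum_congr rfl fun C _ => by rw [Nat.card_eq_fintype_card, Set.toFinset_card]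
  rw [← Finset.sum_add_sum_compl (insert (ConjClasses.mk (1 : G)) T), Finset.sum_insert h1T,
    Finset.sum_congr rfl hcar, Finset.sum_const, smul_eq_mul, card_carrier_eq_index,
    show Subgroup.centralizer ({(1 : G)} : Set G) = ⊤ from eq_top_iff.2 fun g _ =>
      Subgroup.mem_centralizer_singleton_iff.2 (by rw [mul_one, one_mul]), Subgroup.index_top] at hsum
  have hcompl : ((insert (ConjClasses.mk (1 : G)) T)ᶜ).card = r + 2 - (T.card + 1) := by
    rw [Finset.card_compl, Finset.card_insert_of_notMem h1T, ← Nat.card_eq_fintype_card, hcls]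
  rw [hpr, he2] at hsum hTlow
  rcases (show T.card = r + 1 ∨ T.card = r by omega) with hT1 | hT1
  · rw [hT1, Finset.card_eq_zero.1 (show ((insert (ConjClasses.mk (1 : G)) T)ᶜ).card = 0 by
      rw [hcompl, hT1]; omega), Finset.sum_empty, add_zero] at hsum
    have e1 : (r + 1) * (2 * n) = 2 * (n * (r + 1)) := by ring
    have e2 : 2 * n * (2 * r + 1) = 2 * (n * (2 * r + 1)) := by ring
    omega
  · obtain ⟨D, hD⟩ := Finset.card_eq_one.1 (show ((insert (ConjClasses.mk (1 : G)) T)ᶜ).card = 1 by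
      rw [hcompl, hT1]; omega)
    rw [hT1, hD, Finset.sum_singleton] at hsum
    obtain ⟨g, rfl⟩ := ConjClasses.mk_surjective D
    have hg1 : g ≠ 1 := by
      rintro rfl
      have := hD ▸ Finset.mem_singleton_self (ConjClasses.mk (1 : G))
      exact Finset.mem_compl.1 this (Finset.mem_insert_self _ _)
    have h2 : 2 ≤ Nat.card (Subgroup.centralizer ({g} : Set G)) := by
      refine (Subgroup.one_lt_card_iff_ne_bot _).2 fun h => hg1 ?_
      rw [← Subgroup.mem_bot, ← h]
      exact Subgroup.mem_centralizer_singleton_iff.2 rfl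
    have h3 := (Subgroup.centralizer ({g} : Set G)).card_mul_index
    rw [← card_carrier_eq_index, hG, hpr, he2] at h3
    have h4 := Nat.mul_le_mul_right (Nat.card (ConjClasses.mk g).carrier) h2
    rw [h3] at h4
    nlinarith

end CfsgLib.DegreeLtPrime
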